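/-
Permutations of `Fin n` coded as natural numbers (digits of `w` bits), subsets as bitmasks, and
automorphism groups of relations given by tables of rows; all loops have logarithmic depth.
-/
import Cfsg.Agent.H1.Chain

set_option autoImplicit false

namespace Cfsg.Agent.H1.Big

open Finset Equiv

/-! ### Loops -/

/-- The position of the only set bit of a small power of two (table lookup). -/
def lowIdx (lb : ℕ) : ℕ :=
  Nat.land (Nat.shiftRight
    0x218868f01f892dc5a234e5595fbabc9d6fd240d52e8b58e980805bf7b19cd47aa73c01128d004d984e9ed03035e83c29c1000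
    (Nat.mul 6 (Nat.mod lb 67))) 63

/-- Remove the lowest set bit. -/
def dropLow (m : ℕ) : ℕ := Nat.land m (Nat.sub m 1)

/-- Fast bit test. -/
def tb (m i : ℕ) : Bool := Nat.beq (Nat.land (Nat.shiftRight m i) 1) 1

theorem tb_eq (m i : ℕ) : tb m i = m.testBit i := by
  change Nat.beq ((m >>> i) &&& 1) 1 = _
  rw [Nat.and_one_is_mod, Nat.testBit_eq_decide_div_mod_eq, Nat.shiftRight_eq_div_pow,
    Bool.eq_iff_iff, Nat.beq_eq, decide_eq_true_eq]

theorem rec_and {a b : Bool} (h : (Bool.rec false b a : Bool) = true) : a = true ∧ b = true := by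
  cases a <;> simp_all

theorem rec_or {a b : Bool} (h : (Bool.rec b true a : Bool) = true) : a = true ∨ b = true := by
  cases a <;> simp_all

/-- `P (off + i)` holds for every set bit `i` of `m` (at most `f` bits). -/
noncomputable def allLoop (P : ℕ → Bool) (off f : ℕ) : ℕ → Bool :=
  Nat.rec (motive := fun _ => ℕ → Bool) (fun m => Nat.beq m 0)
    (fun _ ih m => Bool.rec
      (Bool.rec false
        (Bool.rec false (ih (dropLow m)) (P (Nat.add off (lowIdx (Nat.xor m (dropLow m))))))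
        (Nat.beq (Nat.shiftLeft 1 (lowIdx (Nat.xor m (dropLow m)))) (Nat.xor m (dropLow m))))
      true (Nat.beq m 0)) f

theorem testBit_cases {m m' j i : ℕ} (e : Nat.beq (Nat.shiftLeft 1 j) (Nat.xor m m') = true)
    (h : m.testBit i = true) : i = j ∨ m'.testBit i = true := by
  have e' : 2 ^ j = m ^^^ m' := by rw [← Nat.one_shiftLeft]; exact Nat.eq_of_beq_eq_true e
  have := congrArg (fun x => x.testBit i) e'
  simp only [Nat.testBit_two_pow, Nat.testBit_xor, h] at this
  by_cases hj : j = i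
  · exact Or.inl hj.symm
  · right; simpa [hj] using this

theorem allLoop_spec {P : ℕ → Bool} {off f m : ℕ} (h : allLoop P off f m = true) {i : ℕ}
    (hi : m.testBit i = true) : P (off + i) = true := by
  induction f generalizing m with
  | zero =>
    have : m = 0 := Nat.eq_of_beq_eq_true h
    subst this; simp at hi
  | succ f ih =>
    rcases rec_or h with h | h
    · have : m = 0 := Nat.eq_of_beq_eq_true h
      subst this; simp at hi
    · obtain ⟨h1, h2⟩ := rec_and h
      obtain ⟨h2, h3⟩ := rec_and h2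
      rcases testBit_cases h1 hi with e | e
      · rw [e]; exact h2
      · exact ih h3 e

theorem shl62 (k : ℕ) : Nat.shiftLeft 62 k = 62 * 2 ^ k := Nat.shiftLeft_eq 62 k

theorem shl1 (k : ℕ) : Nat.shiftLeft 1 k = 2 ^ k := Nat.one_shiftLeft k

/-- `P (off + i)` holds for every set bit `i` of `m`, splitting `m` into `2 ^ k` blocks. -/
noncomputable def allT (P : ℕ → Bool) (k : ℕ) : ℕ → ℕ → Bool :=
  Nat.rec (motive := fun _ => ℕ → ℕ → Bool) (fun off m => allLoop P off 62 m)
    (fun k ih off m => Bool.rec false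
      (ih (Nat.add off (Nat.shiftLeft 62 k)) (Nat.shiftRight m (Nat.shiftLeft 62 k)))
      (ih off (Nat.mod m (Nat.shiftLeft 1 (Nat.shiftLeft 62 k))))) k

theorem allT_spec {P : ℕ → Bool} {k off m : ℕ} (h : allT P k off m = true) {i : ℕ}
    (hi : m.testBit i = true) : P (off + i) = true := by
  induction k generalizing off m i with
  | zero => exact allLoop_spec (P := P) (off := off) (f := 62) (m := m) h hi
  | succ k ih =>
    obtain ⟨h1, h2⟩ := rec_and h
    change allT P k off (m % Nat.shiftLeft 1 (Nat.shiftLeft 62 k)) = true at h1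
    change allT P k (off + Nat.shiftLeft 62 k) (m >>> Nat.shiftLeft 62 k) = true at h2
    rw [shl62] at h1 h2
    rw [shl1] at h1
    by_cases hlt : i < 62 * 2 ^ k
    · exact ih (off := off) (m := m % 2 ^ (62 * 2 ^ k)) h1 (by rw [Nat.testBit_mod_two_pow]; simp [hlt, hi])
    · have := ih (i := i - 62 * 2 ^ k) (m := m >>> (62 * 2 ^ k)) (off := off + 62 * 2 ^ k) h2
        (by rw [Nat.testBit_shiftRight, Nat.add_sub_cancel' (not_lt.mp hlt), hi])
      rwa [Nat.add_assoc, Nat.add_sub_cancel' (not_lt.mp hlt)] at this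

/-- The mask with bits `g (off + i)` over the set bits `i` of `m` (at most `f` bits). -/
noncomputable def orLoop (g : ℕ → ℕ) (off f : ℕ) : ℕ → ℕ :=
  Nat.rec (motive := fun _ => ℕ → ℕ) (fun _ => 0)
    (fun _ ih m => Bool.rec 0
      (Nat.lor (Nat.shiftLeft 1 (g (Nat.add off (lowIdx (Nat.xor m (dropLow m))))))
        (ih (dropLow m)))
      (tb m (lowIdx (Nat.xor m (dropLow m))))) f

theorem orLoop_spec {g : ℕ → ℕ} {off f m j : ℕ} (h : (orLoop g off f m).testBit j = true) :
    ∃ i, m.testBit i = true ∧ g (off + i) = j := by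
  induction f generalizing m with
  | zero => exact absurd h (by simp [orLoop])
  | succ f ih =>
    change (Bool.rec 0 ((Nat.shiftLeft 1 (g (off + lowIdx (Nat.xor m (dropLow m))))) |||
      orLoop g off f (dropLow m)) (tb m (lowIdx (Nat.xor m (dropLow m)))) : ℕ).testBit j = true at h
    cases e : tb m (lowIdx (Nat.xor m (dropLow m)))
    · rw [e] at h; simp at h
    · rw [e] at h
      simp only [Nat.testBit_or, Bool.or_eq_true, shl1, Nat.testBit_two_pow,
        decide_eq_true_eq] at h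
      rcases h with h | h
      · exact ⟨_, by rw [← tb_eq, e], h⟩
      · obtain ⟨i, hi, e'⟩ := ih h
        change (m &&& (m - 1)).testBit i = true at hi
        rw [Nat.testBit_and, Bool.and_eq_true] at hi
        exact ⟨i, hi.1, e'⟩

/-- The mask with bits `g (off + i)` over the set bits `i` of `m`. -/
noncomputable def orT (g : ℕ → ℕ) (k : ℕ) : ℕ → ℕ → ℕ :=
  Nat.rec (motive := fun _ => ℕ → ℕ → ℕ) (fun off m => orLoop g off 62 m)
    (fun k ih off m => Nat.lor (ih off (Nat.mod m (Nat.shiftLeft 1 (Nat.shiftLeft 62 k))))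
      (ih (Nat.add off (Nat.shiftLeft 62 k)) (Nat.shiftRight m (Nat.shiftLeft 62 k)))) k

theorem orT_spec {g : ℕ → ℕ} {k off m j : ℕ} (h : (orT g k off m).testBit j = true) :
    ∃ i, m.testBit i = true ∧ g (off + i) = j := by
  induction k generalizing off m with
  | zero => exact orLoop_spec (f := 62) h
  | succ k ih =>
    change (orT g k off (m % Nat.shiftLeft 1 (Nat.shiftLeft 62 k)) |||
      orT g k (off + Nat.shiftLeft 62 k) (m >>> Nat.shiftLeft 62 k)).testBit j = true at h
    rw [Nat.testBit_or, Bool.or_eq_true, shl1] at h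
    rcases h with h | h
    · obtain ⟨i, hi, e⟩ := ih h
      rw [Nat.testBit_mod_two_pow, Bool.and_eq_true] at hi
      exact ⟨i, hi.2, e⟩
    · obtain ⟨i, hi, e⟩ := ih h
      rw [Nat.testBit_shiftRight] at hi
      exact ⟨_, hi, by rw [← e, Nat.add_assoc]⟩

/-- `P` holds on the `2 ^ k` numbers from `off`. -/
noncomputable def allR (P : ℕ → Bool) (k : ℕ) : ℕ → Bool :=
  Nat.rec (motive := fun _ => ℕ → Bool) (fun off => P off)
    (fun k ih off => Bool.rec false (ih (Nat.add off (Nat.shiftLeft 1 k))) (ih off)) k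

theorem allR_spec {P : ℕ → Bool} {k off : ℕ} (h : allR P k off = true) {i : ℕ} (h1 : off ≤ i)
    (h2 : i < off + 2 ^ k) : P i = true := by
  induction k generalizing off with
  | zero =>
    have : i = off := by omega
    rw [this]; exact h
  | succ k ih =>
    obtain ⟨h3, h4⟩ := rec_and h
    rw [shl1] at h4
    by_cases hlt : i < off + 2 ^ k
    · exact ih h3 h1 hlt
    · exact ih (off := off + 2 ^ k) h4 (not_lt.mp hlt) (by rw [pow_succ] at h2; omega)

/-- Number of `i` among the `2 ^ k` numbers from `off` with `P i`. -/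
def cntR (P : ℕ → Bool) : ℕ → ℕ → ℕ
  | 0, off => bif P off then 1 else 0
  | k + 1, off => cntR P k off + cntR P k (off + 2 ^ k)

theorem cntR_eq (P : ℕ → Bool) (k off : ℕ) :
    cntR P k off = ((Ico off (off + 2 ^ k)).filter fun i => P i = true).card := by
  induction k generalizing off with
  | zero =>
    rw [cntR, pow_zero, Nat.Ico_succ_singleton, filter_singleton]
    cases P off <;> simp
  | succ k ih =>
    rw [cntR, ih, ih, ← card_union_of_disjoint, ← filter_union, Ico_union_Ico_eq_Ico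
      (Nat.le_add_right _ _) (Nat.le_add_right _ _), pow_succ, Nat.add_assoc, Nat.mul_two]
    exact disjoint_filter_filter (Ico_disjoint_Ico_consecutive _ _ _)

/-! ### Digits -/

/-- The `i`-th digit of `w` bits. -/
def ap (w c i : ℕ) : ℕ :=
  Nat.land (Nat.shiftRight c (Nat.mul w i)) (Nat.sub (Nat.shiftLeft 1 w) 1)

theorem ap_eq (w c i : ℕ) : ap w c i = (c >>> (w * i)) % 2 ^ w := by
  rw [← Nat.and_two_pow_sub_one_eq_mod, ← shl1]; rfl

theorem ap_lt (w c i : ℕ) : ap w c i < 2 ^ w := by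
  rw [ap_eq]; exact Nat.mod_lt _ (Nat.two_pow_pos w)

theorem testBit_ap (w c i j : ℕ) :
    (ap w c i).testBit j = (decide (j < w) && c.testBit (w * i + j)) := by
  rw [ap_eq, Nat.testBit_mod_two_pow, Nat.testBit_shiftRight]

theorem ap_mod {w c i n : ℕ} (h : i < n) : ap w (c % 2 ^ (w * n)) i = ap w c i := by
  apply Nat.eq_of_testBit_eq
  intro j
  rw [testBit_ap, testBit_ap, Nat.testBit_mod_two_pow]
  by_cases hj : j < w
  · have : w * i + j < w * n := by
      have := Nat.mul_le_mul_left w (Nat.succ_le_of_lt h)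
      rw [Nat.mul_succ] at this; omega
    simp [this]
  · simp [hj]

/-- The number with the `2 ^ k` digits `f off, f (off + 1), ...`. -/
noncomputable def mkT (w : ℕ) (f : ℕ → ℕ) (k : ℕ) : ℕ → ℕ :=
  Nat.rec (motive := fun _ => ℕ → ℕ) (fun off => f off)
    (fun k ih off => Nat.lor (ih off)
      (Nat.shiftLeft (ih (Nat.add off (Nat.shiftLeft 1 k))) (Nat.shiftLeft w k))) k

theorem mkT_zero (w : ℕ) (f : ℕ → ℕ) (off : ℕ) : mkT w f 0 off = f off := rfl

theorem mkT_succ (w : ℕ) (f : ℕ → ℕ) (k off : ℕ) : mkT w f (k + 1) off =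
    mkT w f k off ||| (mkT w f k (off + 2 ^ k) <<< (w * 2 ^ k)) := by
  rw [← shl1 k, shl1, ← Nat.shiftLeft_eq w k, ← shl1 k]; rfl

theorem mkT_lt {w : ℕ} {f : ℕ → ℕ} (hf : ∀ i, f i < 2 ^ w) (k off : ℕ) :
    mkT w f k off < 2 ^ (w * 2 ^ k) := by
  induction k generalizing off with
  | zero => simpa [mkT_zero] using hf off
  | succ k ih =>
    rw [mkT_succ]
    have e : w * 2 ^ (k + 1) = w * 2 ^ k + w * 2 ^ k := by ring
    apply Nat.or_lt_two_pow
    · exact (ih off).trans_le (Nat.pow_le_pow_right (by norm_num) (by omega))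
    · rw [Nat.shiftLeft_eq, e, pow_add]
      exact Nat.mul_lt_mul_of_pos_right (ih _) (Nat.two_pow_pos _)

theorem ap_mkT {w : ℕ} {f : ℕ → ℕ} (hf : ∀ i, f i < 2 ^ w) (k off i : ℕ) (hi : i < 2 ^ k) :
    ap w (mkT w f k off) i = f (off + i) := by
  induction k generalizing off i with
  | zero =>
    have : i = 0 := by omega
    subst this
    simp [ap_eq, mkT_zero, Nat.mod_eq_of_lt (hf off)]
  | succ k ih =>
    by_cases hlt : i < 2 ^ k
    · rw [← ih off i hlt]
      apply Nat.eq_of_testBit_eq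
      intro j
      rw [testBit_ap, testBit_ap, mkT_succ, Nat.testBit_or, Nat.testBit_shiftLeft]
      by_cases hj : j < w
      · have : ¬ w * i + j ≥ w * 2 ^ k := by
          have := Nat.mul_le_mul_left w (Nat.succ_le_of_lt hlt)
          rw [Nat.mul_succ] at this; omega
        simp [this]
      · simp [hj]
    · obtain ⟨i, rfl⟩ := Nat.exists_eq_add_of_le (not_lt.mp hlt)
      rw [← Nat.add_assoc, ← ih (off + 2 ^ k) i (by rw [pow_succ] at hi; omega)]
      apply Nat.eq_of_testBit_eq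
      intro j
      rw [testBit_ap, testBit_ap, mkT_succ, Nat.testBit_or, Nat.testBit_shiftLeft,
        Nat.testBit_lt_two_pow ((mkT_lt hf k off).trans_le
          (Nat.pow_le_pow_right (by norm_num) (by rw [Nat.mul_add]; omega)))]
      have h1 : w * (2 ^ k + i) + j ≥ w * 2 ^ k := by rw [Nat.mul_add]; omega
      have h2 : w * (2 ^ k + i) + j - w * 2 ^ k = w * i + j := by rw [Nat.mul_add]; omega
      simp [h1, h2]

/-! ### Subsets of `Fin n` -/

variable {n : ℕ}

/-- The set of points whose bit is set. -/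
def toSet (n m : ℕ) : Finset (Fin n) := univ.filter fun i => m.testBit i = true

@[simp] theorem mem_toSet {m : ℕ} {i : Fin n} : i ∈ toSet n m ↔ m.testBit i = true := by
  simp [toSet]

theorem card_filter_fin (P : ℕ → Bool) {w : ℕ} (hw : n ≤ 2 ^ w) :
    (univ.filter fun i : Fin n => P i = true).card =
      cntR (fun i => Nat.blt i n && P i) w 0 := by
  rw [cntR_eq]
  refine card_bij (fun i _ => i.val) ?_ ?_ ?_
  · intro i hi
    have := i.2
    simp only [mem_filter, mem_univ, true_and] at hi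
    simp only [mem_filter, mem_Ico, Bool.and_eq_true, Nat.blt_eq]
    exact ⟨⟨by omega, by omega⟩, this, hi⟩
  · intro i _ j _ h
    exact Fin.ext h
  · intro i hi
    simp only [mem_filter, mem_Ico, Bool.and_eq_true, Nat.blt_eq] at hi
    exact ⟨⟨i, hi.2.1⟩, by simpa using hi.2.2, rfl⟩

theorem card_toSet (m : ℕ) {w : ℕ} (hw : n ≤ 2 ^ w) :
    (toSet n m).card = cntR (fun i => Nat.blt i n && m.testBit i) w 0 :=
  card_filter_fin _ hw

theorem forall_fin {P : ℕ → Bool} {w : ℕ} (hw : n ≤ 2 ^ w)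
    (h : allR (fun i => Nat.ble n i || P i) w 0 = true) (i : Fin n) : P i = true := by
  have := allR_spec h (Nat.zero_le i) (by have := i.2; omega)
  rw [Bool.or_eq_true, Nat.ble_eq] at this
  exact this.resolve_left (not_le.mpr i.2)

/-! ### Coded permutations -/

/-- The code `c` represents the permutation `g`. -/
def Rep (w : ℕ) (g : Perm (Fin n)) (c : ℕ) : Prop := ∀ i, (g i).val = ap w c i

variable {w : ℕ}

theorem Rep.unique {g h : Perm (Fin n)} {c : ℕ} (hg : Rep w g c) (hh : Rep w h c) : g = h :=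
  Equiv.ext fun p => Fin.ext ((hg p).trans (hh p).symm)

/-- Product of codes. -/
noncomputable def cmul (n w c d : ℕ) : ℕ := mkT w (fun i => ap w c (ap w d i)) w 0 % 2 ^ (w * n)

/-- Code of the identity. -/
noncomputable def cid (n w : ℕ) : ℕ := mkT w (fun i => i % 2 ^ w) w 0 % 2 ^ (w * n)

theorem rep_one (hw : n ≤ 2 ^ w) : Rep w (1 : Perm (Fin n)) (cid n w) := by
  intro i
  rw [cid, ap_mod i.2, ap_mkT (fun _ => Nat.mod_lt _ (Nat.two_pow_pos w)) _ _ _ (i.2.trans_le hw),
    Nat.zero_add, Nat.mod_eq_of_lt (i.2.trans_le hw)]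
  rfl

theorem Rep.mul (hw : n ≤ 2 ^ w) {g h : Perm (Fin n)} {c d : ℕ} (hg : Rep w g c)
    (hh : Rep w h d) : Rep w (g * h) (cmul n w c d) := by
  intro i
  rw [cmul, ap_mod i.2, ap_mkT (fun _ => ap_lt _ _ _) _ _ _ (i.2.trans_le hw), Nat.zero_add,
    Perm.mul_apply, hg, hh]

/-- The code represents an element of `H`. -/
def In (w : ℕ) (H : Subgroup (Perm (Fin n))) (c : ℕ) : Prop := ∃ g ∈ H, Rep w g c

theorem In.mono {H K : Subgroup (Perm (Fin n))} {c : ℕ} (h : In w H c) (hle : H ≤ K) :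
    In w K c :=
  let ⟨g, hg, r⟩ := h; ⟨g, hle hg, r⟩

theorem In.mul (hw : n ≤ 2 ^ w) {H : Subgroup (Perm (Fin n))} {c d : ℕ} (h : In w H c)
    (k : In w H d) : In w H (cmul n w c d) :=
  let ⟨_, hg, r⟩ := h; let ⟨_, hg', r'⟩ := k; ⟨_, H.mul_mem hg hg', r.mul hw r'⟩

/-- Value of a nonempty word: a first letter and a list of positions in `gens`. -/
noncomputable def word (n w : ℕ) (gens : List ℕ) (a : ℕ) : List ℕ → ℕ
  | [] => a
  | i :: l => cmul n w (gens.getD i a) (word n w gens a l)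

theorem in_word (hw : n ≤ 2 ^ w) {H : Subgroup (Perm (Fin n))} {gens : List ℕ}
    (h : ∀ c ∈ gens, In w H c) {a : ℕ} (ha : In w H a) (l : List ℕ) :
    In w H (word n w gens a l) := by
  induction l with
  | nil => exact ha
  | cons i l ih =>
    refine In.mul hw ?_ ih
    rw [List.getD_eq_getElem?_getD]
    cases e : gens[i]? with
    | none => exact ha
    | some c => exact h c (List.mem_of_getElem? e)

theorem in_of_word (hw : n ≤ 2 ^ w) {H : Subgroup (Perm (Fin n))} {a b : ℕ} (ha : In w H a)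
    (hb : In w H b) (i : Bool) (l : List ℕ) {c : ℕ}
    (e : Nat.beq (word n w [a, b] (bif i then b else a) l) c = true) : In w H c := by
  rw [← Nat.eq_of_beq_eq_true e]
  refine in_word hw ?_ (by cases i <;> assumption) l
  simp [ha, hb]

theorem Rep.pow_succ (hw : n ≤ 2 ^ w) {g : Perm (Fin n)} {c : ℕ} (hg : Rep w g c) (k : ℕ) :
    Rep w (g ^ (k + 1)) (word n w [] c (List.replicate k 0)) := by
  induction k with
  | zero => simpa [word] using hg
  | succ k ih =>
    rw [_root_.pow_succ', List.replicate_succ, word]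
    exact hg.mul hw ih

theorem Rep.pow_eq_one (hw : n ≤ 2 ^ w) {g : Perm (Fin n)} {c : ℕ} (hg : Rep w g c) (k : ℕ)
    (e : Nat.beq (word n w [] c (List.replicate k 0)) (cid n w) = true) : g ^ (k + 1) = 1 := by
  have := hg.pow_succ hw k
  rw [Nat.eq_of_beq_eq_true e] at this
  exact this.unique (rep_one hw)

/-- The code `c` has all digits below `n` and `d` is a left inverse. -/
noncomputable def isPerm (n w c d : ℕ) : Bool :=
  allR (fun i => Nat.ble n i || (Nat.blt (ap w c i) n && Nat.beq (ap w d (ap w c i)) i)) w 0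

theorem exists_rep (hw : n ≤ 2 ^ w) {c d : ℕ} (h : isPerm n w c d = true) :
    ∃ g : Perm (Fin n), Rep w g c := by
  have h1 := forall_fin hw h
  simp only [Bool.and_eq_true, Nat.blt_eq, Nat.beq_eq] at h1
  have h2 : Function.Injective fun i : Fin n => (⟨ap w c i, (h1 i).1⟩ : Fin n) := by
    intro i j e
    have e' : ap w c i = ap w c j := congrArg Fin.val e
    exact Fin.ext (by rw [← (h1 i).2, e', (h1 j).2])
  exact ⟨Equiv.ofBijective _ (Finite.injective_iff_bijective.mp h2), fun i => rfl⟩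

/-- The code fixes the listed points. -/
def fixes (w : ℕ) (l : List (Fin n)) (c : ℕ) : Bool := l.all fun i => Nat.beq (ap w c i) i

theorem In.fixL {H : Subgroup (Perm (Fin n))} {c : ℕ} (h : In w H c) {l : List (Fin n)}
    (hl : fixes w l c = true) : In w (fixL H l) c := by
  obtain ⟨g, hg, r⟩ := h
  refine ⟨g, ⟨hg, fun i hi => Fin.ext ?_⟩, r⟩
  rw [r]
  exact Nat.eq_of_beq_eq_true (List.all_eq_true.mp hl i hi)

/-! ### Orbits -/

/-- One round of closing a mask under a list of codes. -/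
noncomputable def orbStep (n w k : ℕ) : List ℕ → ℕ → ℕ
  | [], m => m
  | c :: l, m => orbStep n w k l (m ||| orT (ap w c) k 0 (m % 2 ^ n))

/-- Several rounds of closing a mask under a list of codes. -/
noncomputable def orbIter (n w k : ℕ) (gens : List ℕ) : ℕ → ℕ → ℕ
  | 0, m => m
  | r + 1, m => orbIter n w k gens r (orbStep n w k gens m)

theorem reach_orbStep {K : Subgroup (Perm (Fin n))} {x : Fin n} {k : ℕ} (gens : List ℕ)
    (hg : ∀ c ∈ gens, In w K c) (m : ℕ) (hm : ∀ p ∈ toSet n m, ∃ g ∈ K, g x = p) :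
    ∀ p ∈ toSet n (orbStep n w k gens m), ∃ g ∈ K, g x = p := by
  induction gens generalizing m with
  | nil => exact hm
  | cons c l ih =>
    refine ih (fun d hd => hg d (List.mem_cons_of_mem _ hd)) _ ?_
    intro p hp
    rw [mem_toSet, Nat.testBit_or, Bool.or_eq_true] at hp
    rcases hp with hp | hp
    · exact hm p (mem_toSet.mpr hp)
    · obtain ⟨g, hgK, r⟩ := hg c List.mem_cons_self
      obtain ⟨i, hi, e⟩ := orT_spec hp
      rw [Nat.testBit_mod_two_pow, Bool.and_eq_true, decide_eq_true_eq] at hi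
      obtain ⟨h, hh, e'⟩ := hm ⟨i, hi.1⟩ (mem_toSet.mpr hi.2)
      refine ⟨g * h, K.mul_mem hgK hh, Fin.ext ?_⟩
      rw [Perm.mul_apply, e', r, ← e, Nat.zero_add]

theorem reach_orbIter {K : Subgroup (Perm (Fin n))} {x : Fin n} {k : ℕ} (gens : List ℕ)
    (hg : ∀ c ∈ gens, In w K c) (r m : ℕ) (hm : ∀ p ∈ toSet n m, ∃ g ∈ K, g x = p) :
    ∀ p ∈ toSet n (orbIter n w k gens r m), ∃ g ∈ K, g x = p := by
  induction r generalizing m with
  | zero => exact hm
  | succ r ih => exact ih _ (reach_orbStep gens hg m hm)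

/-- Orbit computation: every point of `S` is an image of `x` under `K`. -/
theorem reach {K : Subgroup (Perm (Fin n))} (gens : List ℕ) (hg : ∀ c ∈ gens, In w K c)
    (x : Fin n) (k r S : ℕ) (h : Nat.beq (orbIter n w k gens r (2 ^ x.val)) S = true) :
    ∀ p ∈ toSet n S, ∃ g ∈ K, g x = p := by
  rw [← Nat.eq_of_beq_eq_true h]
  refine reach_orbIter gens hg r _ fun p hp => ?_
  rw [mem_toSet, Nat.testBit_two_pow, decide_eq_true_eq] at hp
  exact ⟨1, K.one_mem, Fin.ext hp⟩

theorem card_fixL_ge {α : Type*} [Finite α] (H : Subgroup (Perm α)) (l : List α) (x : α)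
    (S : Finset α) (hS : ∀ y ∈ S, ∃ g ∈ fixL H l, g x = y) :
    S.card * Nat.card (fixL H (x :: l)) ≤ Nat.card (fixL H l) := by
  classical
  have := Fintype.ofFinite α
  rw [card_fixL H l x (univ.filter fun y => ∃ g ∈ fixL H l, g x = y) (by simp)]
  exact Nat.mul_le_mul_right _ (card_le_card fun y hy => by simpa using hS y hy)

/-- Lower bound for one step of a stabiliser chain. -/
theorem ge_step (hw : n ≤ 2 ^ w) {H : Subgroup (Perm (Fin n))} (gens : List ℕ)
    (hg : ∀ c ∈ gens, In w H c) (l : List (Fin n)) (x : Fin n) (k r s : ℕ)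
    (h : (gens.all (fixes w l) && Nat.beq (cntR (fun i => Nat.blt i n &&
      (orbIter n w k gens r (2 ^ x.val)).testBit i) w 0) s) = true) {N : ℕ}
    (hN : N ≤ Nat.card (fixL H (x :: l))) : s * N ≤ Nat.card (fixL H l) := by
  rw [Bool.and_eq_true, List.all_eq_true, Nat.beq_eq, ← card_toSet _ hw] at h
  have := card_fixL_ge H l x _ (reach gens (fun c hc => (hg c hc).fixL (h.1 c hc)) x k r _
    (Nat.beq_refl _))
  rw [h.2] at this
  exact (Nat.mul_le_mul_left s hN).trans this

/-! ### Automorphism groups of relations -/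

/-- The permutations preserving the relation whose rows are given by `R`. -/
def autG (n : ℕ) (R : ℕ → ℕ) : Subgroup (Perm (Fin n)) where
  carrier := {g | ∀ u v : Fin n, (R (g u)).testBit (g v) = (R u).testBit v}
  one_mem' := fun _ _ => rfl
  mul_mem' := fun {a b} ha hb u v => by rw [Perm.mul_apply, Perm.mul_apply, ha, hb]
  inv_mem' := fun {a} ha u v => by rw [← ha]; simp

theorem mem_autG_of {R : ℕ → ℕ} {g : Perm (Fin n)}
    (h : ∀ u v : Fin n, (R u).testBit v = true → (R (g u)).testBit (g v) = true) :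
    g ∈ autG n R := by
  have h1 : ∀ k : ℕ, ∀ u v : Fin n, (R u).testBit v = true →
      (R ((g ^ k) u)).testBit ((g ^ k) v) = true := by
    intro k
    induction k with
    | zero => exact fun _ _ h => h
    | succ k ih =>
      intro u v huv
      rw [pow_succ', Perm.mul_apply, Perm.mul_apply]
      exact h _ _ (ih u v huv)
  intro u v
  refine Bool.eq_iff_iff.mpr ⟨fun h2 => ?_, h u v⟩
  have h3 := h1 (orderOf g - 1) _ _ h2
  rwa [← Perm.mul_apply, ← Perm.mul_apply, ← pow_succ,
    Nat.sub_add_cancel (orderOf_pos g), pow_orderOf_eq_one] at h3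

/-- The code maps the rows numbered from `off` (`2 ^ j` of them) into the right rows. -/
noncomputable def autRows (n w k : ℕ) (R : ℕ → ℕ) (c j off : ℕ) : Bool :=
  allR (fun u => Nat.ble n u || allT (fun v => tb (R (ap w c u)) (ap w c v)) k 0 (R u)) j off

theorem Rep.mem_autG {R : ℕ → ℕ} {g : Perm (Fin n)} {c : ℕ} (r : Rep w g c) {k j : ℕ}
    (h : ∀ t, t * 2 ^ j < n → autRows n w k R c j (t * 2 ^ j) = true) : g ∈ autG n R := by
  refine mem_autG_of fun u v huv => ?_
  have h1 := Nat.div_add_mod' u (2 ^ j)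
  have h2 := Nat.mod_lt u (Nat.two_pow_pos j)
  have h3 := u.2
  have := allR_spec (h (u / 2 ^ j) (by omega)) (i := u) (by omega) (by omega)
  rw [Bool.or_eq_true, Nat.ble_eq] at this
  have := allT_spec (this.resolve_left (by omega)) huv
  rwa [Nat.zero_add, ← r, ← r, tb_eq] at this

/-- The points below `n` having the same membership pattern as `i` in the listed masks. -/
def cell (n i : ℕ) : List ℕ → ℕ
  | [] => 2 ^ n - 1
  | s :: L => (bif s.testBit i then s else s ^^^ (2 ^ n - 1)) &&& cell n i L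

theorem apply_mem_cell {g : Perm (Fin n)} {L : List ℕ}
    (hL : ∀ s ∈ L, ∀ p : Fin n, s.testBit (g p) = s.testBit p) (i : Fin n) :
    g i ∈ toSet n (cell n i L) := by
  rw [mem_toSet]
  induction L with
  | nil => rw [cell, Nat.testBit_two_pow_sub_one]; simp
  | cons s L ih =>
    rw [cell, Nat.testBit_and, ih fun t ht => hL t (List.mem_cons_of_mem _ ht), Bool.and_true]
    have h := hL s List.mem_cons_self i
    cases e : s.testBit i
    · rw [cond_false, Nat.testBit_xor, h, e, Nat.testBit_two_pow_sub_one]; simp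
    · rw [cond_true, h, e]

/-- The masks attached to a list of points: the points themselves and their rows. -/
def masksOf (R : ℕ → ℕ) (l : List (Fin n)) : List ℕ :=
  (l.map fun u => 2 ^ u.val) ++ l.map fun u => R u.val

theorem inv_masksOf {R : ℕ → ℕ} {g : Perm (Fin n)} (hg : g ∈ autG n R) {l : List (Fin n)}
    (hl : ∀ u ∈ l, g u = u) : ∀ s ∈ masksOf R l, ∀ p : Fin n, s.testBit (g p) = s.testBit p := by
  intro s hs p
  rcases List.mem_append.mp hs with hs | hs <;> obtain ⟨u, hu, rfl⟩ := List.mem_map.mp hs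
  · rw [Nat.testBit_two_pow, Nat.testBit_two_pow, decide_eq_decide, ← Fin.ext_iff, ← Fin.ext_iff]
    conv_lhs => rw [← hl u hu]
    exact g.injective.eq_iff
  · conv_lhs => rw [← hl u hu]
    exact hg u p

/-- Upper bound for one step of a stabiliser chain of an automorphism group. -/
theorem le_step (hw : n ≤ 2 ^ w) (R : ℕ → ℕ) (l : List (Fin n)) (x : Fin n) (s : ℕ)
    (h : Nat.beq (cntR (fun i => Nat.blt i n && (cell n x (masksOf R l)).testBit i) w 0) s = true)
    {N : ℕ} (hN : Nat.card (fixL (autG n R) (x :: l)) ≤ N) :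
    Nat.card (fixL (autG n R) l) ≤ s * N := by
  rw [Nat.beq_eq, ← card_toSet _ hw] at h
  have := card_fixL_le (autG n R) l x _ fun g hg => apply_mem_cell (inv_masksOf hg.1 hg.2) x
  rw [h] at this
  exact this.trans (Nat.mul_le_mul_left s hN)

/-- One round of a rigidity argument. -/
theorem fix_step {R : ℕ → ℕ} {g : Perm (Fin n)} (hg : g ∈ autG n R) (l l' : List (Fin n))
    (h : (l'.all fun i => Nat.beq (cell n i (masksOf R l)) (2 ^ i.val)) = true)
    (hl : ∀ u ∈ l, g u = u) : ∀ u ∈ l', g u = u := by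
  intro u hu
  have := apply_mem_cell (inv_masksOf hg hl) u
  rw [Nat.eq_of_beq_eq_true (List.all_eq_true.mp h u hu), mem_toSet, Nat.testBit_two_pow,
    decide_eq_true_eq] at this
  exact (Fin.ext this).symm

/-- The last round of a rigidity argument. -/
theorem fix_last (hw : n ≤ 2 ^ w) {R : ℕ → ℕ} {g : Perm (Fin n)} (hg : g ∈ autG n R)
    (l : List (Fin n))
    (h : allR (fun i => Nat.ble n i || Nat.beq (cell n i (l.map fun u => R u.val)) (2 ^ i)) w 0 =
      true)
    (hl : ∀ u ∈ l, g u = u) : g = 1 := by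
  refine Equiv.ext fun u => ?_
  have := apply_mem_cell (L := l.map fun u => R u.val) (fun s hs =>
    inv_masksOf hg hl s (List.mem_append_right _ hs)) u
  rw [Nat.eq_of_beq_eq_true (forall_fin hw h u), mem_toSet, Nat.testBit_two_pow,
    decide_eq_true_eq] at this
  exact (Fin.ext this).symm

/-! ### Tables -/

/-- Binary trees of numbers. -/
inductive Tab
  | leaf : ℕ → Tab
  | node : Tab → Tab → Tab

/-- Lookup in a binary tree along the bits of `i`, lowest bit first. -/
noncomputable def Tab.get (t : Tab) : ℕ → ℕ :=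
  Tab.rec (motive := fun _ => ℕ → ℕ) (fun a _ => a)
    (fun _ _ l r i => Bool.rec (r (Nat.shiftRight i 1)) (l (Nat.shiftRight i 1))
      (Nat.beq (Nat.land i 1) 0)) t

/-! ### Signs -/

theorem Rep.sign_eq_neg_one (hw : n ≤ 2 ^ w) {g : Perm (Fin n)} {c : ℕ} (r : Rep w g c)
    (h2 : g ^ 2 = 1)
    (h : Nat.beq (((n - cntR (fun i => Nat.blt i n && Nat.beq (ap w c i) i) w 0) / 2) % 2) 1 =
      true) : Perm.sign g = -1 := by
  rw [Perm.sign_of_pow_two_eq_one h2, Fintype.card_fin]
  have h1 : Fintype.card (Function.fixedPoints g) =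
      cntR (fun i => Nat.blt i n && Nat.beq (ap w c i) i) w 0 := by
    rw [← card_filter_fin _ hw, Fintype.card_subtype]
    congr 1
    ext i
    simp only [mem_filter, mem_univ, true_and, Function.mem_fixedPoints_iff, Nat.beq_eq, ← r i,
      Fin.ext_iff]
  rw [h1]
  exact Odd.neg_one_pow (Nat.odd_iff.mpr (Nat.eq_of_beq_eq_true h))

theorem sign_eq_one_of_pow {α : Type*} [Fintype α] [DecidableEq α] {g : Perm α} {p : ℕ}
    (hp : Odd p) (h : g ^ p = 1) : Perm.sign g = 1 := by
  have h1 := congrArg Perm.sign h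
  rw [map_pow, map_one] at h1
  rcases Int.units_eq_one_or (Perm.sign g) with e | e
  · exact e
  · rw [e, hp.neg_one_pow] at h1
    exact absurd h1 (by decide)

theorem two_mul_card_inf_alternating {α : Type*} [Fintype α] [DecidableEq α]
    (A : Subgroup (Perm α)) {c : Perm α} (hc : c ∈ A) (hs : Perm.sign c = -1) :
    2 * Nat.card ↥(A ⊓ alternatingGroup α) = Nat.card A := by
  have h1 : ((alternatingGroup α).subgroupOf A).index = 2 := by
    rw [Subgroup.index_eq_two_iff]
    refine ⟨⟨c, hc⟩, fun b => ?_⟩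
    simp only [Subgroup.mem_subgroupOf, Perm.mem_alternatingGroup, Subgroup.coe_mul, map_mul, hs]
    rcases Int.units_eq_one_or (Perm.sign b.1) with e | e <;> simp [e]
  rw [← h1, ← ((alternatingGroup α).subgroupOf A).index_mul_card, ← Subgroup.inf_subgroupOf_right,
    Nat.card_congr (Subgroup.subgroupOfEquivOfLe inf_le_right).toEquiv, inf_comm]

/-! ### A simplicity criterion for primitive groups -/

/-- A transitive permutation group `G` in which, for every point `y ≠ x`, some subgroup generated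
by elements fixing `x` and an element carrying `x` into the orbit of `y` under the stabiliser of `x`
is transitive: nontrivial normal subgroups are transitive. -/
theorem normal_transitive_of_suborbits {α : Type*} {G : Subgroup (Perm α)} {x : α}
    (htr : ∀ y, ∃ g ∈ G, g x = y)
    (hsub : ∀ y, y ≠ x → ∃ t ∈ G, (∃ h ∈ fixL G [x], h (t x) = y) ∧
      ∀ K : Subgroup (Perm α), fixL G [x] ≤ K → t ∈ K → ∀ z, ∃ k ∈ K, k x = z)
    (N : Subgroup G) [hN : N.Normal] (hne : N ≠ ⊥) (z : α) : ∃ m ∈ N, m • x = z := by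
  obtain ⟨⟨m, hm⟩, hm1⟩ := Subgroup.ne_bot_iff_exists_ne_one.mp hne
  have h0 : ∃ m ∈ N, m.1 x ≠ x := by
    by_contra hc
    push Not at hc
    apply hm1
    refine Subtype.ext (Subtype.ext (Equiv.ext fun y => ?_))
    obtain ⟨g, hg, rfl⟩ := htr y
    have := hc _ (hN.conj_mem _ hm ⟨g, hg⟩⁻¹)
    simp only [inv_inv, Subgroup.coe_mul, InvMemClass.coe_inv, Perm.mul_apply,
      Perm.inv_eq_iff_eq] at this
    exact this
  obtain ⟨m, hm, hmx⟩ := h0
  obtain ⟨t, ht, ⟨h, hh, e⟩, hK⟩ := hsub _ hmx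
  let K : Subgroup (Perm α) :=
    { carrier := {g | g ∈ G ∧ ∃ m ∈ N, m.1 x = g x}
      one_mem' := ⟨G.one_mem, 1, N.one_mem, rfl⟩
      mul_mem' := fun {a b} ha hb => by
        obtain ⟨ha, m1, hm1, e1⟩ := ha
        obtain ⟨hb, m2, hm2, e2⟩ := hb
        refine ⟨G.mul_mem ha hb, _, N.mul_mem (hN.conj_mem m2 hm2 ⟨a, ha⟩) hm1, ?_⟩
        simp [e1, e2]
      inv_mem' := fun {a} ha => by
        obtain ⟨ha, m1, hm1, e1⟩ := ha
        refine ⟨G.inv_mem ha, _, hN.conj_mem m1⁻¹ (N.inv_mem hm1) ⟨a, ha⟩⁻¹, ?_⟩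
        simp [← e1] }
  obtain ⟨k, ⟨-, m', hm', e'⟩, ek⟩ := hK K
    (fun g hg => ⟨hg.1, 1, N.one_mem, (hg.2 x List.mem_cons_self).symm⟩)
    ⟨ht, _, hN.conj_mem m hm ⟨h, hh.1⟩⁻¹, by
      simp only [inv_inv, Subgroup.coe_mul, InvMemClass.coe_inv, Perm.mul_apply,
        hh.2 x List.mem_cons_self, ← e]
      simp⟩ z
  exact ⟨m', hm', e'.trans ek⟩

theorem mem_of_pow_prime_eq_one' {K : Type*} [Group K] [Finite K] {p q : ℕ} (hp : p.Prime)
    (hK : ¬ p * q ∣ Nat.card K) (N : Subgroup K) [N.Normal] (hN : q ∣ Nat.card N) {x : K}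
    (hx : x ^ p = 1) : x ∈ N := by
  have hi : ¬ p ∣ N.index := by
    intro h
    apply hK
    rw [← N.index_mul_card]
    exact Nat.mul_dvd_mul h hN
  have h1 : orderOf (x : K ⧸ N) ∣ p := by
    rw [orderOf_dvd_iff_pow_eq_one, ← QuotientGroup.mk_pow, hx, QuotientGroup.mk_one]
  have h2 : orderOf (x : K ⧸ N) ∣ N.index := orderOf_dvd_natCard _
  rcases (Nat.dvd_prime hp).mp h1 with h | h
  · rwa [orderOf_eq_one_iff, QuotientGroup.eq_one_iff] at h
  · exact absurd (h ▸ h2) hi

theorem simple_of_suborbits {α : Type*} [Fintype α] {G : Subgroup (Perm α)} [Nontrivial G] {x : α}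
    (htr : ∀ y, ∃ g ∈ G, g x = y)
    (hsub : ∀ y, y ≠ x → ∃ t ∈ G, (∃ h ∈ fixL G [x], h (t x) = y) ∧
      ∀ K : Subgroup (Perm α), fixL G [x] ≤ K → t ∈ K → ∀ z, ∃ k ∈ K, k x = z)
    {p q : ℕ} (hp : p.Prime) (hq : q ∣ Fintype.card α) (hK : ¬ p * q ∣ Nat.card G)
    (hgen : ∀ N : Subgroup G, N.Normal → (∀ g : G, g ^ p = 1 → g ∈ N) → N = ⊤) :
    IsSimpleGroup G := by
  refine ⟨fun N hN => ?_⟩
  by_cases hb : N = ⊥
  · exact Or.inl hb
  right
  have h0 := normal_transitive_of_suborbits htr hsub N hb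
  have h1 := card_dvd_of_transitive univ (fun _ _ _ => mem_univ _) N (mem_univ x) fun d _ => h0 d
  exact hgen N hN fun g hg => mem_of_pow_prime_eq_one' hp hK N (hq.trans h1) hg

/-- Rank three assembly: `a` and `b = c * a * c` have odd prime order `p`, `c` is an odd involution,
the automorphism group has order at most `2 * N`, and every group containing `a, b` has order at
least `N`. Then the even automorphisms form a group of order `N`, generated by `a, b`. -/
theorem card_even_aut {A : Subgroup (Perm (Fin n))} {a c : Perm (Fin n)} (ha : a ∈ A) (hc : c ∈ A)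
    {p : ℕ} (hp : Odd p) (hap : a ^ p = 1) (hc2 : c ^ 2 = 1) (hs : Perm.sign c = -1) {N : ℕ}
    (hA : Nat.card A ≤ 2 * N)
    (hH : ∀ H : Subgroup (Perm (Fin n)), a ∈ H → c * a * c ∈ H → N ≤ Nat.card H) :
    Nat.card ↥(A ⊓ alternatingGroup (Fin n)) = N ∧ a ∈ A ⊓ alternatingGroup (Fin n) ∧
      c * a * c ∈ A ⊓ alternatingGroup (Fin n) ∧
      ∀ M : Subgroup ↥(A ⊓ alternatingGroup (Fin n)), (∀ g, g ^ p = 1 → g ∈ M) → M = ⊤ := by
  have hc' : c = c⁻¹ := by rw [eq_inv_iff_mul_eq_one, ← pow_two, hc2]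
  have hbp : (c * a * c) ^ p = 1 := by
    nth_rewrite 2 [hc']
    rw [conj_pow, hap, mul_one, mul_inv_cancel]
  have h1 : a ∈ A ⊓ alternatingGroup (Fin n) := ⟨ha, sign_eq_one_of_pow hp hap⟩
  have h2 : c * a * c ∈ A ⊓ alternatingGroup (Fin n) :=
    ⟨A.mul_mem (A.mul_mem hc ha) hc, sign_eq_one_of_pow hp hbp⟩
  have h3 := two_mul_card_inf_alternating A hc hs
  have h4 := hH _ h1 h2
  have h5 : Nat.card ↥(A ⊓ alternatingGroup (Fin n)) = N := by omega
  refine ⟨h5, h1, h2, fun M hM => ?_⟩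
  have h6 := hH (M.map (Subgroup.subtype _)) ⟨⟨a, h1⟩, hM _ (Subtype.ext hap), rfl⟩
    ⟨⟨_, h2⟩, hM _ (Subtype.ext hbp), rfl⟩
  rw [Subgroup.card_subtype] at h6
  exact Subgroup.eq_top_of_le_card _ (by omega)

/-- The data for `simple_of_suborbits` in rank three: the stabiliser of `x` has orbits `S₁` and
`S₂` on the other points. -/
theorem suborbits_rank_three {G : Subgroup (Perm (Fin n))} {x : Fin n}
    (gens : List ℕ) (hg : ∀ c ∈ gens, In w (fixL G [x]) c) {c₁ c₂ : ℕ} (h₁ : In w G c₁)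
    (h₂ : In w G c₂) (k r₁ r₂ r₃ r₄ : ℕ)
    (e₁ : Nat.beq (orbIter n w k gens r₁ (2 ^ ap w c₁ x) ||| orbIter n w k gens r₂ (2 ^ ap w c₂ x)
      ||| 2 ^ x.val) (2 ^ n - 1) = true)
    (e₃ : Nat.beq (orbIter n w k (c₁ :: gens) r₃ (2 ^ x.val)) (2 ^ n - 1) = true)
    (e₄ : Nat.beq (orbIter n w k (c₂ :: gens) r₄ (2 ^ x.val)) (2 ^ n - 1) = true) :
    (∀ y, ∃ g ∈ G, g x = y) ∧ ∀ y, y ≠ x → ∃ t ∈ G, (∃ h ∈ fixL G [x], h (t x) = y) ∧
      ∀ K : Subgroup (Perm (Fin n)), fixL G [x] ≤ K → t ∈ K → ∀ z, ∃ k ∈ K, k x = z := by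
  have hfull : ∀ z : Fin n, z ∈ toSet n (2 ^ n - 1) := fun z => by
    rw [mem_toSet, Nat.testBit_two_pow_sub_one]; simp
  have key : ∀ {c r : ℕ} {t : Perm (Fin n)}, Rep w t c →
      Nat.beq (orbIter n w k (c :: gens) r (2 ^ x.val)) (2 ^ n - 1) = true →
      ∀ K : Subgroup (Perm (Fin n)), fixL G [x] ≤ K → t ∈ K → ∀ z, ∃ k ∈ K, k x = z := by
    intro c r t rt e K hK ht z
    refine reach (c :: gens) ?_ x k r _ e z (hfull z)
    intro d hd
    rcases List.mem_cons.mp hd with rfl | hd
    · exact ⟨t, ht, rt⟩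
    · exact (hg d hd).mono hK
  obtain ⟨t₁, ht₁, r1⟩ := h₁
  obtain ⟨t₂, ht₂, r2⟩ := h₂
  refine ⟨key r1 e₃ G (fixL_le _ _) ht₁, fun y hy => ?_⟩
  have h := hfull y
  rw [← Nat.eq_of_beq_eq_true e₁, mem_toSet, Nat.testBit_or, Nat.testBit_or, Bool.or_eq_true,
    Bool.or_eq_true, Nat.testBit_two_pow, decide_eq_true_eq, ← r1, ← r2] at h
  rcases h with (h | h) | h
  · exact ⟨t₁, ht₁, reach gens hg _ k r₁ _ (Nat.beq_refl _) y (mem_toSet.mpr h), key r1 e₃⟩
  · exact ⟨t₂, ht₂, reach gens hg _ k r₂ _ (Nat.beq_refl _) y (mem_toSet.mpr h), key r2 e₄⟩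
  · exact absurd (Fin.ext h).symm hy

end Cfsg.Agent.H1.Big
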