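/-
The two generators preserve adjacency (a block of rows).
-/
import Cfsg.Agent.H1.J2Data

set_option autoImplicit false
set_option maxRecDepth 100000

namespace Cfsg.Agent.H1.J2

open Big Equiv

theorem aut_cA_0 : autRows 100 7 1 row cA 7 (0 * 2 ^ 7) = true := by
  decide +kernel

theorem aut_cC_0 : autRows 100 7 1 row cC 7 (0 * 2 ^ 7) = true := by
  decide +kernel


end Cfsg.Agent.H1.J2
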