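/-
The even automorphisms of the graph on 100 vertices form a simple group.
-/
import Cfsg.Agent.H1.J2Aut0

set_option autoImplicit false
set_option maxRecDepth 100000

namespace Cfsg.Agent.H1.J2

open Big Equiv

theorem hw : 100 ≤ 2 ^ 7 := by norm_num

theorem aut_cA : ∀ t, t * 2 ^ 7 < 100 → autRows 100 7 1 row cA 7 (t * 2 ^ 7) = true := by
  intro t ht
  have h : t < 1 := by omega
  interval_cases t
  exacts [aut_cA_0]

theorem aut_cC : ∀ t, t * 2 ^ 7 < 100 → autRows 100 7 1 row cC 7 (t * 2 ^ 7) = true := by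
  intro t ht
  have h : t < 1 := by omega
  interval_cases t
  exacts [aut_cC_0]

theorem base_eq_bot : fixL (autG 100 row) [12, 11, 10, 2, 1, 0] = ⊥ := by
  refine (Subgroup.eq_bot_iff_forall _).mpr fun g hg => ?_
  have h0 := hg.2
  have h1 := fix_step hg.1 [12, 11, 10, 2, 1, 0]
    [1, 2, 10, 11, 12, 8, 19] (by decide +kernel) h0
  have h2 := fix_step hg.1 [1, 2, 10, 11, 12, 8, 19]
    [0, 1, 10, 12, 23, 8, 44, 45, 19, 43, 99] (by decide +kernel) h1
  exact fix_last hw hg.1 _ (by decide +kernel) h2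

theorem card_aut_le : Nat.card (autG 100 row) ≤ 2 * 604800 := by
  have h6 : Nat.card (fixL (autG 100 row) [12, 11, 10, 2, 1, 0]) ≤ 1 := by
    rw [base_eq_bot, Subgroup.card_bot]
  have h5 := le_step hw row [11, 10, 2, 1, 0] 12 2 (by decide +kernel) h6
  have h4 := le_step hw row [10, 2, 1, 0] 11 3 (by decide +kernel) h5
  have h3 := le_step hw row [2, 1, 0] 10 4 (by decide +kernel) h4
  have h2 := le_step hw row [1, 0] 2 14 (by decide +kernel) h3
  have h1 := le_step hw row [0] 1 36 (by decide +kernel) h2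
  have h0 := le_step hw row [] 0 100 (by decide +kernel) h1
  rw [fixL_nil] at h0
  exact h0.trans (by norm_num)

section

variable {H : Subgroup (Perm (Fin 100))} (hA : Big.In 7 H cA) (hB : Big.In 7 H cB)

include hA hB

theorem in_s10 : Big.In 7 H s10 :=
  in_of_word hw hA hB true [0, 0, 1, 1, 0, 0, 1] (by decide +kernel)

theorem in_s11 : Big.In 7 H s11 :=
  in_of_word hw hA hB false [1, 0, 1, 0, 0, 0, 0, 1, 0] (by decide +kernel)

theorem in_s20 : Big.In 7 H s20 :=
  in_of_word hw (in_s10 hA hB) (in_s11 hA hB) false [1, 1, 0] (by decide +kernel)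

theorem in_s21 : Big.In 7 H s21 :=
  in_of_word hw (in_s10 hA hB) (in_s11 hA hB) true [1, 0, 0, 1, 0, 0, 1] (by decide +kernel)

theorem in_s30 : Big.In 7 H s30 :=
  in_of_word hw (in_s20 hA hB) (in_s21 hA hB) false [] (by decide +kernel)

theorem in_s31 : Big.In 7 H s31 :=
  in_of_word hw (in_s20 hA hB) (in_s21 hA hB) true [1, 0, 0, 0] (by decide +kernel)

theorem in_s40 : Big.In 7 H s40 :=
  in_of_word hw (in_s30 hA hB) (in_s31 hA hB) true [0, 0] (by decide +kernel)

theorem in_s41 : Big.In 7 H s41 :=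
  in_of_word hw (in_s30 hA hB) (in_s31 hA hB) true [1, 0] (by decide +kernel)

theorem in_s50 : Big.In 7 H s50 :=
  in_of_word hw (in_s40 hA hB) (in_s41 hA hB) true [0] (by decide +kernel)

theorem card_ge : 604800 ≤ Nat.card H := by
  have h6 : 1 ≤ Nat.card (fixL H [12, 11, 10, 2, 1, 0]) := Nat.card_pos
  have h5 := ge_step hw [s50]
    (by simp only [List.forall_mem_cons, List.not_mem_nil, false_imp_iff, implies_true, and_true]; exact (in_s50 hA hB))
    [11, 10, 2, 1, 0] 12 1 1 2 (by decide +kernel) h6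
  have h4 := ge_step hw [s40, s41]
    (by simp only [List.forall_mem_cons, List.not_mem_nil, false_imp_iff, implies_true, and_true]; exact ⟨(in_s40 hA hB), (in_s41 hA hB)⟩)
    [10, 2, 1, 0] 11 1 1 3 (by decide +kernel) h5
  have h3 := ge_step hw [s30, s31]
    (by simp only [List.forall_mem_cons, List.not_mem_nil, false_imp_iff, implies_true, and_true]; exact ⟨(in_s30 hA hB), (in_s31 hA hB)⟩)
    [2, 1, 0] 10 1 2 4 (by decide +kernel) h4
  have h2 := ge_step hw [s20, s21]
    (by simp only [List.forall_mem_cons, List.not_mem_nil, false_imp_iff, implies_true, and_true]; exact ⟨(in_s20 hA hB), (in_s21 hA hB)⟩)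
    [1, 0] 2 1 4 7 (by decide +kernel) h3
  have h1 := ge_step hw [s10, s11]
    (by simp only [List.forall_mem_cons, List.not_mem_nil, false_imp_iff, implies_true, and_true]; exact ⟨(in_s10 hA hB), (in_s11 hA hB)⟩)
    [0] 1 1 4 36 (by decide +kernel) h2
  have h0 := ge_step hw [cA, cB]
    (by simp only [List.forall_mem_cons, List.not_mem_nil, false_imp_iff, implies_true, and_true]; exact ⟨hA, hB⟩)
    [] 0 1 7 100 (by decide +kernel) h1
  rw [fixL_nil] at h0
  exact le_trans (by norm_num) h0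

end

theorem exists_simple : ∃ G : Subgroup (Perm (Fin 100)), IsSimpleGroup G ∧ Nat.card G = 604800 := by
  obtain ⟨a, ra⟩ := exists_rep hw (c := cA) (d := cA') (by decide +kernel)
  obtain ⟨c, rc⟩ := exists_rep hw (c := cC) (d := cC) (by decide +kernel)
  have rb : Big.Rep 7 (c * a * c) cB := by
    have := (rc.mul hw ra).mul hw rc
    rwa [Nat.eq_of_beq_eq_true (by decide +kernel :
      Nat.beq (cmul 100 7 (cmul 100 7 cC cA) cC) cB = true)] at this
  have hc2 : c ^ 2 = 1 := rc.pow_eq_one hw 1 (by decide +kernel)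
  obtain ⟨h1, h2, h3, h4⟩ := card_even_aut (ra.mem_autG aut_cA) (rc.mem_autG aut_cC) (p := 5)
    (by decide) (ra.pow_eq_one hw 4 (by decide +kernel)) hc2
    (rc.sign_eq_neg_one hw hc2 (by decide +kernel)) card_aut_le
    fun H ha hb => card_ge ⟨a, ha, ra⟩ ⟨_, hb, rb⟩
  refine ⟨_, ?_, h1⟩
  have hA : Big.In 7 _ cA := ⟨a, h2, ra⟩
  have hB : Big.In 7 _ cB := ⟨_, h3, rb⟩
  obtain ⟨h5, h6⟩ := suborbits_rank_three (x := 0) [s10, s11]
    (by
      simp only [List.forall_mem_cons, List.not_mem_nil, false_imp_iff, implies_true, and_true]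
      exact ⟨(in_s10 hA hB).fixL (by decide +kernel), (in_s11 hA hB).fixL (by decide +kernel)⟩)
    hA hB 1 6 8 4 5 (by decide +kernel) (by decide +kernel) (by decide +kernel)
  have : Nontrivial ↥(autG 100 row ⊓ alternatingGroup (Fin 100)) :=
    Finite.one_lt_card_iff_nontrivial.mp (by rw [h1]; norm_num)
  exact simple_of_suborbits h5 h6 (p := 5) (q := 25) (by norm_num) (by simp)
    (by rw [h1]; norm_num) fun N _ => h4 N

end Cfsg.Agent.H1.J2
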