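/-
The two generators preserve adjacency (a block of rows).
-/
import Cfsg.Agent.H1.SuzData

set_option autoImplicit false
set_option maxRecDepth 100000

namespace Cfsg.Agent.H1.Suz

open Big Equiv

theorem aut_cC_0 : autRows 1782 11 5 row cC 5 (0 * 2 ^ 5) = true := by
  decide +kernel

theorem aut_cC_1 : autRows 1782 11 5 row cC 5 (1 * 2 ^ 5) = true := by
  decide +kernel

theorem aut_cC_2 : autRows 1782 11 5 row cC 5 (2 * 2 ^ 5) = true := by
  decide +kernel

theorem aut_cC_3 : autRows 1782 11 5 row cC 5 (3 * 2 ^ 5) = true := by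
  decide +kernel

theorem aut_cC_4 : autRows 1782 11 5 row cC 5 (4 * 2 ^ 5) = true := by
  decide +kernel

theorem aut_cC_5 : autRows 1782 11 5 row cC 5 (5 * 2 ^ 5) = true := by
  decide +kernel

theorem aut_cC_6 : autRows 1782 11 5 row cC 5 (6 * 2 ^ 5) = true := by
  decide +kernel

theorem aut_cC_7 : autRows 1782 11 5 row cC 5 (7 * 2 ^ 5) = true := by
  decide +kernel

theorem aut_cC_8 : autRows 1782 11 5 row cC 5 (8 * 2 ^ 5) = true := by
  decide +kernel

theorem aut_cC_9 : autRows 1782 11 5 row cC 5 (9 * 2 ^ 5) = true := by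
  decide +kernel

theorem aut_cC_10 : autRows 1782 11 5 row cC 5 (10 * 2 ^ 5) = true := by
  decide +kernel

theorem aut_cC_11 : autRows 1782 11 5 row cC 5 (11 * 2 ^ 5) = true := by
  decide +kernel

theorem aut_cC_12 : autRows 1782 11 5 row cC 5 (12 * 2 ^ 5) = true := by
  decide +kernel

theorem aut_cC_13 : autRows 1782 11 5 row cC 5 (13 * 2 ^ 5) = true := by
  decide +kernel


end Cfsg.Agent.H1.Suz
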