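/-
The two generators preserve adjacency (a block of rows).
-/
import Cfsg.Agent.H1.SuzData

set_option autoImplicit false
set_option maxRecDepth 100000

namespace Cfsg.Agent.H1.Suz

open Big Equiv

theorem aut_cC_14 : autRows 1782 11 5 row cC 5 (14 * 2 ^ 5) = true := by
  decide +kernel

theorem aut_cC_15 : autRows 1782 11 5 row cC 5 (15 * 2 ^ 5) = true := by
  decide +kernel

theorem aut_cC_16 : autRows 1782 11 5 row cC 5 (16 * 2 ^ 5) = true := by
  decide +kernel

theorem aut_cC_17 : autRows 1782 11 5 row cC 5 (17 * 2 ^ 5) = true := by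
  decide +kernel

theorem aut_cC_18 : autRows 1782 11 5 row cC 5 (18 * 2 ^ 5) = true := by
  decide +kernel

theorem aut_cC_19 : autRows 1782 11 5 row cC 5 (19 * 2 ^ 5) = true := by
  decide +kernel

theorem aut_cC_20 : autRows 1782 11 5 row cC 5 (20 * 2 ^ 5) = true := by
  decide +kernel

theorem aut_cC_21 : autRows 1782 11 5 row cC 5 (21 * 2 ^ 5) = true := by
  decide +kernel

theorem aut_cC_22 : autRows 1782 11 5 row cC 5 (22 * 2 ^ 5) = true := by
  decide +kernel

theorem aut_cC_23 : autRows 1782 11 5 row cC 5 (23 * 2 ^ 5) = true := by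
  decide +kernel

theorem aut_cC_24 : autRows 1782 11 5 row cC 5 (24 * 2 ^ 5) = true := by
  decide +kernel

theorem aut_cC_25 : autRows 1782 11 5 row cC 5 (25 * 2 ^ 5) = true := by
  decide +kernel

theorem aut_cC_26 : autRows 1782 11 5 row cC 5 (26 * 2 ^ 5) = true := by
  decide +kernel

theorem aut_cC_27 : autRows 1782 11 5 row cC 5 (27 * 2 ^ 5) = true := by
  decide +kernel


end Cfsg.Agent.H1.Suz
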