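/-
The two generators preserve adjacency (a block of rows).
-/
import Cfsg.Agent.H1.SuzData

set_option autoImplicit false
set_option maxRecDepth 100000

namespace Cfsg.Agent.H1.Suz

open Big Equiv

theorem aut_cC_28 : autRows 1782 11 5 row cC 5 (28 * 2 ^ 5) = true := by
  decide +kernel

theorem aut_cC_29 : autRows 1782 11 5 row cC 5 (29 * 2 ^ 5) = true := by
  decide +kernel

theorem aut_cC_30 : autRows 1782 11 5 row cC 5 (30 * 2 ^ 5) = true := by
  decide +kernel

theorem aut_cC_31 : autRows 1782 11 5 row cC 5 (31 * 2 ^ 5) = true := by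
  decide +kernel

theorem aut_cC_32 : autRows 1782 11 5 row cC 5 (32 * 2 ^ 5) = true := by
  decide +kernel

theorem aut_cC_33 : autRows 1782 11 5 row cC 5 (33 * 2 ^ 5) = true := by
  decide +kernel

theorem aut_cC_34 : autRows 1782 11 5 row cC 5 (34 * 2 ^ 5) = true := by
  decide +kernel

theorem aut_cC_35 : autRows 1782 11 5 row cC 5 (35 * 2 ^ 5) = true := by
  decide +kernel

theorem aut_cC_36 : autRows 1782 11 5 row cC 5 (36 * 2 ^ 5) = true := by
  decide +kernel

theorem aut_cC_37 : autRows 1782 11 5 row cC 5 (37 * 2 ^ 5) = true := by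
  decide +kernel

theorem aut_cC_38 : autRows 1782 11 5 row cC 5 (38 * 2 ^ 5) = true := by
  decide +kernel

theorem aut_cC_39 : autRows 1782 11 5 row cC 5 (39 * 2 ^ 5) = true := by
  decide +kernel

theorem aut_cC_40 : autRows 1782 11 5 row cC 5 (40 * 2 ^ 5) = true := by
  decide +kernel

theorem aut_cC_41 : autRows 1782 11 5 row cC 5 (41 * 2 ^ 5) = true := by
  decide +kernel


end Cfsg.Agent.H1.Suz
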