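/-
The two generators preserve adjacency (a block of rows).
-/
import Cfsg.Agent.H1.SuzData

set_option autoImplicit false
set_option maxRecDepth 100000

namespace Cfsg.Agent.H1.Suz

open Big Equiv

theorem aut_cC_42 : autRows 1782 11 5 row cC 5 (42 * 2 ^ 5) = true := by
  decide +kernel

theorem aut_cC_43 : autRows 1782 11 5 row cC 5 (43 * 2 ^ 5) = true := by
  decide +kernel

theorem aut_cC_44 : autRows 1782 11 5 row cC 5 (44 * 2 ^ 5) = true := by
  decide +kernel

theorem aut_cC_45 : autRows 1782 11 5 row cC 5 (45 * 2 ^ 5) = true := by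
  decide +kernel

theorem aut_cC_46 : autRows 1782 11 5 row cC 5 (46 * 2 ^ 5) = true := by
  decide +kernel

theorem aut_cC_47 : autRows 1782 11 5 row cC 5 (47 * 2 ^ 5) = true := by
  decide +kernel

theorem aut_cC_48 : autRows 1782 11 5 row cC 5 (48 * 2 ^ 5) = true := by
  decide +kernel

theorem aut_cC_49 : autRows 1782 11 5 row cC 5 (49 * 2 ^ 5) = true := by
  decide +kernel

theorem aut_cC_50 : autRows 1782 11 5 row cC 5 (50 * 2 ^ 5) = true := by
  decide +kernel

theorem aut_cC_51 : autRows 1782 11 5 row cC 5 (51 * 2 ^ 5) = true := by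
  decide +kernel

theorem aut_cC_52 : autRows 1782 11 5 row cC 5 (52 * 2 ^ 5) = true := by
  decide +kernel

theorem aut_cC_53 : autRows 1782 11 5 row cC 5 (53 * 2 ^ 5) = true := by
  decide +kernel

theorem aut_cC_54 : autRows 1782 11 5 row cC 5 (54 * 2 ^ 5) = true := by
  decide +kernel

theorem aut_cC_55 : autRows 1782 11 5 row cC 5 (55 * 2 ^ 5) = true := by
  decide +kernel


end Cfsg.Agent.H1.Suz
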