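/-
The even automorphisms of the graph on 1782 vertices form a simple group.
-/
import Cfsg.Agent.H1.SuzAut0
import Cfsg.Agent.H1.SuzAut1
import Cfsg.Agent.H1.SuzAut2
import Cfsg.Agent.H1.SuzAut3
import Cfsg.Agent.H1.SuzAut4
import Cfsg.Agent.H1.SuzAut5
import Cfsg.Agent.H1.SuzAut6
import Cfsg.Agent.H1.SuzAut7

set_option autoImplicit false
set_option maxRecDepth 100000

namespace Cfsg.Agent.H1.Suz

open Big Equiv

theorem hw : 1782 ≤ 2 ^ 11 := by norm_num

theorem aut_cA : ∀ t, t * 2 ^ 5 < 1782 → autRows 1782 11 5 row cA 5 (t * 2 ^ 5) = true := by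
  intro t ht
  have h : t < 56 := by omega
  interval_cases t
  exacts [aut_cA_0, aut_cA_1, aut_cA_2, aut_cA_3, aut_cA_4, aut_cA_5, aut_cA_6, aut_cA_7, aut_cA_8, aut_cA_9, aut_cA_10, aut_cA_11, aut_cA_12, aut_cA_13, aut_cA_14, aut_cA_15, aut_cA_16, aut_cA_17, aut_cA_18, aut_cA_19, aut_cA_20, aut_cA_21, aut_cA_22, aut_cA_23, aut_cA_24, aut_cA_25, aut_cA_26, aut_cA_27, aut_cA_28, aut_cA_29, aut_cA_30, aut_cA_31, aut_cA_32, aut_cA_33, aut_cA_34, aut_cA_35, aut_cA_36, aut_cA_37, aut_cA_38, aut_cA_39, aut_cA_40, aut_cA_41, aut_cA_42, aut_cA_43, aut_cA_44, aut_cA_45, aut_cA_46, aut_cA_47, aut_cA_48, aut_cA_49, aut_cA_50, aut_cA_51, aut_cA_52, aut_cA_53, aut_cA_54, aut_cA_55]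

theorem aut_cC : ∀ t, t * 2 ^ 5 < 1782 → autRows 1782 11 5 row cC 5 (t * 2 ^ 5) = true := by
  intro t ht
  have h : t < 56 := by omega
  interval_cases t
  exacts [aut_cC_0, aut_cC_1, aut_cC_2, aut_cC_3, aut_cC_4, aut_cC_5, aut_cC_6, aut_cC_7, aut_cC_8, aut_cC_9, aut_cC_10, aut_cC_11, aut_cC_12, aut_cC_13, aut_cC_14, aut_cC_15, aut_cC_16, aut_cC_17, aut_cC_18, aut_cC_19, aut_cC_20, aut_cC_21, aut_cC_22, aut_cC_23, aut_cC_24, aut_cC_25, aut_cC_26, aut_cC_27, aut_cC_28, aut_cC_29, aut_cC_30, aut_cC_31, aut_cC_32, aut_cC_33, aut_cC_34, aut_cC_35, aut_cC_36, aut_cC_37, aut_cC_38, aut_cC_39, aut_cC_40, aut_cC_41, aut_cC_42, aut_cC_43, aut_cC_44, aut_cC_45, aut_cC_46, aut_cC_47, aut_cC_48, aut_cC_49, aut_cC_50, aut_cC_51, aut_cC_52, aut_cC_53, aut_cC_54, aut_cC_55]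

theorem base_eq_bot : fixL (autG 1782 row) [14, 13, 12, 4, 3, 2, 1, 0] = ⊥ := by
  refine (Subgroup.eq_bot_iff_forall _).mpr fun g hg => ?_
  have h0 := hg.2
  have h1 := fix_step hg.1 [14, 13, 12, 4, 3, 2, 1, 0]
    [0, 1, 2, 3, 4, 12, 1211, 46, 24, 6, 10, 18, 45, 21, 102, 1407, 5, 42] (by decide +kernel) h0
  have h2 := fix_step hg.1 [0, 1, 2, 3, 4, 12, 1211, 46, 24, 6, 10, 18, 45, 21, 102, 1407, 5, 42]
    [0, 1, 2, 3, 12, 13, 14, 1211, 25, 975, 6, 1484, 18, 45, 1407, 105, 5, 26, 578, 374, 908, 588, 414, 1657, 144, 839, 927, 501] (by decide +kernel) h1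
  exact fix_last hw hg.1 _ (by decide +kernel) h2

theorem card_aut_le : Nat.card (autG 1782 row) ≤ 2 * 448345497600 := by
  have h8 : Nat.card (fixL (autG 1782 row) [14, 13, 12, 4, 3, 2, 1, 0]) ≤ 1 := by
    rw [base_eq_bot, Subgroup.card_bot]
  have h7 := le_step hw row [13, 12, 4, 3, 2, 1, 0] 14 2 (by decide +kernel) h8
  have h6 := le_step hw row [12, 4, 3, 2, 1, 0] 13 3 (by decide +kernel) h7
  have h5 := le_step hw row [4, 3, 2, 1, 0] 12 4 (by decide +kernel) h6
  have h4 := le_step hw row [3, 2, 1, 0] 4 14 (by decide +kernel) h5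
  have h3 := le_step hw row [2, 1, 0] 3 36 (by decide +kernel) h4
  have h2 := le_step hw row [1, 0] 2 100 (by decide +kernel) h3
  have h1 := le_step hw row [0] 1 416 (by decide +kernel) h2
  have h0 := le_step hw row [] 0 1782 (by decide +kernel) h1
  rw [fixL_nil] at h0
  exact h0.trans (by norm_num)

section

variable {H : Subgroup (Perm (Fin 1782))} (hA : Big.In 11 H cA) (hB : Big.In 11 H cB)

include hA hB

theorem in_s10 : Big.In 11 H s10 :=
  in_of_word hw hA hB false [1, 0, 0, 1, 0, 1, 1, 0, 0] (by decide +kernel)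

theorem in_s11 : Big.In 11 H s11 :=
  in_of_word hw hA hB true [0, 0, 0, 0, 0, 0, 1, 0, 0, 1] (by decide +kernel)

theorem in_s20 : Big.In 11 H s20 :=
  in_of_word hw (in_s10 hA hB) (in_s11 hA hB) false [0, 0, 1, 1, 1, 0, 1, 0] (by decide +kernel)

theorem in_s21 : Big.In 11 H s21 :=
  in_of_word hw (in_s10 hA hB) (in_s11 hA hB) false [0, 1, 0, 1, 1, 1, 1, 1, 1] (by decide +kernel)

theorem in_s30 : Big.In 11 H s30 :=
  in_of_word hw (in_s20 hA hB) (in_s21 hA hB) false [0, 0, 0, 0] (by decide +kernel)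

theorem in_s31 : Big.In 11 H s31 :=
  in_of_word hw (in_s20 hA hB) (in_s21 hA hB) false [0, 1, 1, 0, 0] (by decide +kernel)

theorem in_s40 : Big.In 11 H s40 :=
  in_of_word hw (in_s30 hA hB) (in_s31 hA hB) false [0, 1, 1, 1] (by decide +kernel)

theorem in_s41 : Big.In 11 H s41 :=
  in_of_word hw (in_s30 hA hB) (in_s31 hA hB) false [1, 0, 1, 1, 0, 1] (by decide +kernel)

theorem in_s50 : Big.In 11 H s50 :=
  in_of_word hw (in_s40 hA hB) (in_s41 hA hB) true [1, 1, 0] (by decide +kernel)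

theorem in_s51 : Big.In 11 H s51 :=
  in_of_word hw (in_s40 hA hB) (in_s41 hA hB) true [1, 0, 1, 0, 1] (by decide +kernel)

theorem in_s60 : Big.In 11 H s60 :=
  in_of_word hw (in_s50 hA hB) (in_s51 hA hB) true [] (by decide +kernel)

theorem in_s61 : Big.In 11 H s61 :=
  in_of_word hw (in_s50 hA hB) (in_s51 hA hB) false [0, 1, 1, 0, 1] (by decide +kernel)

theorem in_s70 : Big.In 11 H s70 :=
  in_of_word hw (in_s60 hA hB) (in_s61 hA hB) true [0] (by decide +kernel)

theorem card_ge : 448345497600 ≤ Nat.card H := by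
  have h8 : 1 ≤ Nat.card (fixL H [14, 13, 12, 4, 3, 2, 1, 0]) := Nat.card_pos
  have h7 := ge_step hw [s70]
    (by simp only [List.forall_mem_cons, List.not_mem_nil, false_imp_iff, implies_true, and_true]; exact (in_s70 hA hB))
    [13, 12, 4, 3, 2, 1, 0] 14 5 1 2 (by decide +kernel) h8
  have h6 := ge_step hw [s60, s61]
    (by simp only [List.forall_mem_cons, List.not_mem_nil, false_imp_iff, implies_true, and_true]; exact ⟨(in_s60 hA hB), (in_s61 hA hB)⟩)
    [12, 4, 3, 2, 1, 0] 13 5 1 3 (by decide +kernel) h7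
  have h5 := ge_step hw [s50, s51]
    (by simp only [List.forall_mem_cons, List.not_mem_nil, false_imp_iff, implies_true, and_true]; exact ⟨(in_s50 hA hB), (in_s51 hA hB)⟩)
    [4, 3, 2, 1, 0] 12 5 2 4 (by decide +kernel) h6
  have h4 := ge_step hw [s40, s41]
    (by simp only [List.forall_mem_cons, List.not_mem_nil, false_imp_iff, implies_true, and_true]; exact ⟨(in_s40 hA hB), (in_s41 hA hB)⟩)
    [3, 2, 1, 0] 4 5 3 7 (by decide +kernel) h5
  have h3 := ge_step hw [s30, s31]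
    (by simp only [List.forall_mem_cons, List.not_mem_nil, false_imp_iff, implies_true, and_true]; exact ⟨(in_s30 hA hB), (in_s31 hA hB)⟩)
    [2, 1, 0] 3 5 6 36 (by decide +kernel) h4
  have h2 := ge_step hw [s20, s21]
    (by simp only [List.forall_mem_cons, List.not_mem_nil, false_imp_iff, implies_true, and_true]; exact ⟨(in_s20 hA hB), (in_s21 hA hB)⟩)
    [1, 0] 2 5 6 100 (by decide +kernel) h3
  have h1 := ge_step hw [s10, s11]
    (by simp only [List.forall_mem_cons, List.not_mem_nil, false_imp_iff, implies_true, and_true]; exact ⟨(in_s10 hA hB), (in_s11 hA hB)⟩)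
    [0] 1 5 8 416 (by decide +kernel) h2
  have h0 := ge_step hw [cA, cB]
    (by simp only [List.forall_mem_cons, List.not_mem_nil, false_imp_iff, implies_true, and_true]; exact ⟨hA, hB⟩)
    [] 0 5 10 1782 (by decide +kernel) h1
  rw [fixL_nil] at h0
  exact le_trans (by norm_num) h0

end

theorem exists_simple : ∃ G : Subgroup (Perm (Fin 1782)), IsSimpleGroup G ∧ Nat.card G = 448345497600 := by
  obtain ⟨a, ra⟩ := exists_rep hw (c := cA) (d := cA') (by decide +kernel)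
  obtain ⟨c, rc⟩ := exists_rep hw (c := cC) (d := cC) (by decide +kernel)
  have rb : Big.Rep 11 (c * a * c) cB := by
    have := (rc.mul hw ra).mul hw rc
    rwa [Nat.eq_of_beq_eq_true (by decide +kernel :
      Nat.beq (cmul 1782 11 (cmul 1782 11 cC cA) cC) cB = true)] at this
  have hc2 : c ^ 2 = 1 := rc.pow_eq_one hw 1 (by decide +kernel)
  obtain ⟨h1, h2, h3, h4⟩ := card_even_aut (ra.mem_autG aut_cA) (rc.mem_autG aut_cC) (p := 11)
    (by decide) (ra.pow_eq_one hw 10 (by decide +kernel)) hc2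
    (rc.sign_eq_neg_one hw hc2 (by decide +kernel)) card_aut_le
    fun H ha hb => card_ge ⟨a, ha, ra⟩ ⟨_, hb, rb⟩
  refine ⟨_, ?_, h1⟩
  have hA : Big.In 11 _ cA := ⟨a, h2, ra⟩
  have hB : Big.In 11 _ cB := ⟨_, h3, rb⟩
  obtain ⟨h5, h6⟩ := suborbits_rank_three (x := 0) [s10, s11]
    (by
      simp only [List.forall_mem_cons, List.not_mem_nil, false_imp_iff, implies_true, and_true]
      exact ⟨(in_s10 hA hB).fixL (by decide +kernel), (in_s11 hA hB).fixL (by decide +kernel)⟩)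
    hA hB 5 8 9 6 6 (by decide +kernel) (by decide +kernel) (by decide +kernel)
  have : Nontrivial ↥(autG 1782 row ⊓ alternatingGroup (Fin 1782)) :=
    Finite.one_lt_card_iff_nontrivial.mp (by rw [h1]; norm_num)
  exact simple_of_suborbits h5 h6 (p := 11) (q := 11) (by norm_num) (by simp)
    (by rw [h1]; norm_num) fun N _ => h4 N

end Cfsg.Agent.H1.Suz
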